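/-
Offenders on `𝔽₂`-modules of `2`-constrained groups with trivial `2`-core.
-/
import Cfsg.Agent.H6.DerLen2
import Cfsg.Agent.H1.Generation
import Cfsg.Agent.H1.RepFree
import Cfsg.Agent.H4.Ord4

set_option autoImplicit false

open Module Subgroup
open scoped commutatorElement

namespace Cfsg.Agent.H6

open H1

theorem zmod_two_cases (a : ZMod 2) : a = 0 ∨ a = 1 := by decide +revert

theorem two_add_self {M : Type*} [AddCommGroup M] [Module (ZMod 2) M] (v : M) : v + v = 0 :=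
  add_self_of_charTwo (k := ZMod 2) v

theorem two_add_add {M : Type*} [AddCommGroup M] [Module (ZMod 2) M] (v w : M) : v + (v + w) = w := by
  rw [← add_assoc, two_add_self, zero_add]

theorem eq_of_mem_four {M : Type*} [AddCommGroup M] [Module (ZMod 2) M] {x y a b : M}
    {c d c' d' : ZMod 2} (hx : x = c • a + d • b) (hy : y = c' • a + d' • b) (x0 : x ≠ 0)
    (y0 : y ≠ 0) (xy : x ≠ y) : a = x ∨ a = y ∨ a = x + y := by
  subst hx hy
  rcases zmod_two_cases c with rfl | rfl <;> rcases zmod_two_cases d with rfl | rfl <;>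
    rcases zmod_two_cases c' with rfl | rfl <;> rcases zmod_two_cases d' with rfl | rfl <;>
    simp_all [add_assoc, add_left_comm b a, two_add_self]

variable {G V : Type*} [Group G] [AddCommGroup V] [Module (ZMod 2) V] {ρ : G →* End (ZMod 2) V}

variable (ρ) in
/-- A transvection with centre `w` and axis `φ`. -/
structure Tv (t : G) (w : V) (φ : V →ₗ[ZMod 2] ZMod 2) : Prop where
  ap : ∀ v, ρ t v = v + φ v • w
  w0 : w ≠ 0
  φ0 : φ ≠ 0

namespace Tv

variable {s t : G} {w w' : V} {φ φ' : V →ₗ[ZMod 2] ZMod 2}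

theorem ww (h : Tv ρ t w φ) : φ w = 0 := (zmod_two_cases _).resolve_right fun e =>
  rep_apply_ne_zero ρ t h.w0 (by rw [h.ap, e, one_smul, two_add_self])

theorem exists_one (h : Tv ρ t w φ) : ∃ v, φ v = 1 := by
  by_contra hn
  exact h.φ0 (LinearMap.ext fun v => (zmod_two_cases _).resolve_right fun e => hn ⟨v, e⟩)

theorem conj (h : Tv ρ t w φ) (g : G) : Tv ρ (g * t * g⁻¹) (ρ g w) (φ ∘ₗ ρ g⁻¹) :=
  ⟨fun v => by simp [h.ap, rep_apply_apply ρ g], rep_apply_ne_zero ρ g h.w0,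
    fun e => h.φ0 (LinearMap.ext fun v => by
      simpa [rep_apply_apply] using LinearMap.congr_fun e (ρ g v))⟩

theorem uniq (h : Tv ρ t w φ) (h' : Tv ρ t w' φ') : w = w' ∧ φ = φ' := by
  obtain ⟨v, hv⟩ := h.exists_one
  have e := fun v => add_left_cancel ((h.ap v).symm.trans (h'.ap v))
  have e1 : w = w' := by
    have := e v
    rcases zmod_two_cases (φ' v) with c | c <;> simp_all [h.w0]
  subst e1
  exact ⟨rfl, LinearMap.ext fun v => smul_left_injective _ h.w0 (e v)⟩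

variable (hρ : Function.Injective ρ)
include hρ

theorem eq (h : Tv ρ s w φ) (h' : Tv ρ t w φ) : s = t :=
  hρ (LinearMap.ext fun v => (h.ap v).trans (h'.ap v).symm)

theorem sq (h : Tv ρ t w φ) : t * t = 1 := hρ (LinearMap.ext fun v => by
  simp [h.ap, h.ww, add_assoc, two_add_self])

theorem inv (h : Tv ρ t w φ) : t⁻¹ = t := inv_eq_of_mul_eq_one_left (h.sq hρ)

theorem commute (h : Tv ρ s w φ) (h' : Tv ρ t w' φ') (h1 : φ w' = 0) (h2 : φ' w = 0) :
    Commute s t := by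
  have := h'.conj s
  rw [h.ap, h1, zero_smul, add_zero, h.inv hρ, show φ' ∘ₗ ρ s = φ' from LinearMap.ext fun v => by
    simp [h.ap, h2]] at this
  exact mul_inv_eq_iff_eq_mul.1 ((h.inv hρ).symm ▸ this.eq hρ h')

theorem braid (h : Tv ρ s w φ) (h' : Tv ρ t w' φ') (ho : Odd (orderOf (s * t))) (hne : s ≠ t) :
    φ w' = 1 ∧ φ' w = 1 := by
  by_contra hn
  have h4 : (s * t) ^ 2 ^ 2 = 1 := hρ (LinearMap.ext fun v => by
    rcases zmod_two_cases (φ w') with c | c <;> rcases zmod_two_cases (φ' w) with c' | c' <;>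
      rcases zmod_two_cases (φ v) with d | d <;> rcases zmod_two_cases (φ' v) with d' | d' <;>
      simp_all [pow_succ, h.ap, h'.ap, h.ww, h'.ww, add_assoc, add_left_comm w' w, two_add_self])
  refine hne ?_
  rw [← h'.inv hρ, ← mul_eq_one_iff_eq_inv, ← orderOf_eq_one_iff]
  exact (ho.coprime_two_right.pow_right 2).eq_one_of_dvd (orderOf_dvd_of_pow_eq_one h4)

variable [Finite G] {F : Subgroup G} [hn : F.Normal] (hF : Odd (Nat.card F)) {f g : G}
include hF

omit hρ hn in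
theorem _root_.Cfsg.Agent.H6.odd_orderOf (hf : f ∈ F) : Odd (orderOf f) :=
  hF.of_dvd_nat (F.orderOf_dvd_natCard hf)

omit hρ hn in
theorem _root_.Cfsg.Agent.H6.exists_sqrt (hf : f ∈ F) : ∃ n : ℕ, f ^ n * f ^ n = f := by
  obtain ⟨m, hm⟩ := odd_orderOf hF hf
  exact ⟨m + 1, by rw [← pow_add, show m + 1 + (m + 1) = orderOf f + 1 by omega, pow_succ,
    pow_orderOf_eq_one, one_mul]⟩

omit hρ hn in
theorem mul (h : Tv ρ t w φ) (hf : f ∈ F) (e : t * f * t⁻¹ = f⁻¹) : ∃ w φ, Tv ρ (t * f) w φ := by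
  obtain ⟨n, hn⟩ := exists_sqrt hF hf
  refine ⟨_, _, (show (f ^ n)⁻¹ * t * (f ^ n)⁻¹⁻¹ = t * f from ?_) ▸ h.conj (f ^ n)⁻¹⟩
  rw [inv_inv, ← inv_pow, ← e, conj_pow, inv_mul_cancel_right, mul_assoc, hn]

/-- The three transvections of a symmetric group of degree three. -/
theorem tri (h : Tv ρ t w φ) (hf : f ∈ F) (f1 : f ≠ 1) (e : t * f * t⁻¹ = f⁻¹) :
    ∃ w₁ φ₁, Tv ρ (t * f) w₁ φ₁ ∧ Tv ρ (t * f⁻¹) (w₁ + w) (φ₁ + φ) ∧ φ w₁ = 1 ∧ φ₁ w = 1 := by
  obtain ⟨w₁, φ₁, h₁⟩ := h.mul hF hf e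
  obtain ⟨a, b⟩ := h.braid hρ h₁ (by rw [← mul_assoc, h.sq hρ, one_mul]; exact odd_orderOf hF hf)
    (by simpa using f1)
  have := h₁.conj t
  rw [mul_assoc, e, h.ap, a, one_smul, h.inv hρ, show φ₁ ∘ₗ ρ t = φ₁ + φ from
    LinearMap.ext fun v => by simp [h.ap, b]] at this
  exact ⟨w₁, φ₁, h₁, this, a, b⟩

theorem three (h : Tv ρ t w φ) (hf : f ∈ F) (f1 : f ≠ 1) (e : t * f * t⁻¹ = f⁻¹) (hg : g ∈ F)
    (e' : t * g * t⁻¹ = g⁻¹) : g = 1 ∨ g = f ∨ g = f⁻¹ := by
  by_contra hn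
  push Not at hn
  obtain ⟨w₁, φ₁, h₁, h₂, -⟩ := h.tri hρ hF hf f1 e
  obtain ⟨w', φ', h'⟩ := h.mul hF hg e'
  have key : ∀ {x w φ}, x ∈ F → g ≠ x → Tv ρ (t * x) w φ → φ' w = 1 := fun {x _ _} hx hne hh =>
    (h'.braid hρ hh (by
      rw [← mul_assoc, ← h.inv hρ, h.inv hρ, show t * g * t = g⁻¹ by rw [← e', h.inv hρ]]
      exact odd_orderOf hF (mul_mem (inv_mem hg) hx)) (by simpa using hne)).1
  have := key (inv_mem hf) hn.2.2 h₂
  rw [map_add, key hf hn.2.1 h₁, key (one_mem _) hn.1 (by rwa [mul_one])] at this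
  exact absurd this (by decide)

theorem cube (h : Tv ρ t w φ) (hf : f ∈ F) (e : t * f * t⁻¹ = f⁻¹) : f ^ 3 = 1 := by
  by_cases f1 : f = 1
  · simp [f1]
  rcases h.three hρ hF hf f1 e (pow_mem hf 2) (by rw [← conj_pow, e, inv_pow]) with c | c | c
  · rw [← orderOf_dvd_iff_pow_eq_one] at c
    exact (f1 (orderOf_eq_one_iff.1 ((odd_orderOf hF hf).coprime_two_right.eq_one_of_dvd c))).elim
  · exact (f1 (by simpa [pow_two] using c)).elim
  · rw [pow_succ, c, inv_mul_cancel]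

omit hF in
theorem conj_eq (h : Tv ρ t w φ) (hg : g ∈ F) :
    ∃ i ∈ F, t * i * t⁻¹ = i⁻¹ ∧ g * t * g⁻¹ = t * i :=
  ⟨t⁻¹ * g * t * g⁻¹, mul_mem (hn.conj_mem' g hg t) (inv_mem hg), by
    rw [mul_inv_rev, mul_inv_rev, mul_inv_rev, inv_inv, inv_inv, h.inv hρ, ← mul_assoc, ← mul_assoc,
      ← mul_assoc, h.sq hρ]; group, by group⟩

theorem exists_inv (hC : centralizer (F : Set G) ≤ F) (h : Tv ρ t w φ) :
    ∃ f ∈ F, f ≠ 1 ∧ t * f * t⁻¹ = f⁻¹ := by
  by_contra hc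
  push Not at hc
  have h1 : t ∈ F := hC (mem_centralizer_iff.2 fun g hg => by
    obtain ⟨i, hi, e, e'⟩ := h.conj_eq hρ hg
    rwa [by_contra fun i1 : ¬ i = 1 => hc i hi i1 e, mul_one, mul_inv_eq_iff_eq_mul] at e')
  obtain ⟨n, hn⟩ := exists_sqrt hF h1
  obtain ⟨v, hv⟩ := h.exists_one
  have := h.ap v
  rw [← hn, ← (Commute.refl t).mul_pow, h.sq hρ, hv] at this
  exact h.w0 (by simpa using this)

theorem central (h : Tv ρ t w φ) (hf : f ∈ F) (e : t * f * t⁻¹ = f⁻¹) (hg : g ∈ F) :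
    Commute g f := by
  by_cases f1 : f = 1
  · simp [f1]
  obtain ⟨i, hi, e1, e2⟩ := h.conj_eq hρ hg
  have e3 : g * t * g⁻¹ * f * (g * t * g⁻¹)⁻¹ = f⁻¹ := by
    rw [e2, ← e]
    rcases h.three hρ hF hf f1 e hi e1 with rfl | rfl | rfl <;> group
  rcases (h.conj g).three hρ hF hf f1 e3 (hn.conj_mem f hf g) (by
    rw [mul_inv_rev (g * f), mul_inv_rev g f, ← e]; group) with c | c | c
  · exact (f1 (by simpa using c)).elim
  · exact mul_inv_eq_iff_eq_mul.1 c
  · obtain ⟨n, hn⟩ := exists_sqrt hF hg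
    have : Commute (g * g) f := by
      rw [Commute, SemiconjBy, ← mul_inv_eq_iff_eq_mul, show g * g * f * (g * g)⁻¹ =
        g * (g * f * g⁻¹) * g⁻¹ by group, c, ← conj_inv, c, inv_inv]
    have := this.pow_left n
    rwa [(Commute.refl g).mul_pow, hn] at this

theorem dichotomy (h : Tv ρ t w φ) (hf : f ∈ F) (f1 : f ≠ 1) (e : t * f * t⁻¹ = f⁻¹)
    (h' : Tv ρ s w' φ') (hg : g ∈ F) (g1 : g ≠ 1) (e' : s * g * s⁻¹ = g⁻¹) :
    (s = t ∨ s = t * f ∨ s = t * f⁻¹) ∨ (Commute s t ∧ Commute s f ∧ Commute g t) := by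
  obtain ⟨w₁', φ₁', h₁', -, a', b'⟩ := h'.tri hρ hF hg g1 e'
  have hg' : ∀ v, ρ g v = v + ((φ' v + φ₁' v) • w' + φ₁' v • w₁') := fun v => by
    rw [← one_mul g, ← h'.sq hρ, mul_assoc, ← rep_apply_apply, h₁'.ap, h'.ap]
    simp [a', add_smul, add_assoc, add_comm (φ₁' v • w₁')]
  have key : ∀ f ∈ F, f ≠ 1 → t * f * t⁻¹ = f⁻¹ → g * t * g⁻¹ = t * f →
      s = t ∨ s = t * f ∨ s = t * f⁻¹ := fun f hf f1 e c => by
    obtain ⟨w₁, φ₁, h₁, h₂, a, b⟩ := h.tri hρ hF hf f1 e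
    have c' : g * (t * f) * g⁻¹ = t * f⁻¹ := by
      rw [← mul_assoc, mul_assoc _ f, ← ((h.central hρ hF hf e hg).inv_left).eq, ← mul_assoc, c,
        mul_assoc, ← pow_two, eq_inv_of_mul_eq_one_left ((pow_succ f 2).symm.trans (h.cube hρ hF hf e))]
    obtain ⟨u1, u2⟩ := (c ▸ h.conj g).uniq h₁
    obtain ⟨u3, u4⟩ := (c' ▸ h₁.conj g).uniq h₂
    have u5 : ∀ {ψ ψ' : V →ₗ[ZMod 2] ZMod 2}, ψ ∘ₗ ρ g⁻¹ = ψ' →
        ψ + ψ' = ψ' w' • φ' + (ψ' w' + ψ' w₁') • φ₁' := fun {ψ ψ'} u => LinearMap.ext fun v => by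
      have := LinearMap.congr_fun u (ρ g v)
      rw [LinearMap.comp_apply, rep_apply_apply, inv_mul_cancel, map_one, End.one_apply, hg'] at this
      simp only [LinearMap.add_apply, this, map_add, map_smul, LinearMap.smul_apply, smul_eq_mul]
      generalize ψ' v = x, ψ' w' = y, ψ' w₁' = z, φ' v = x', φ₁' v = y'
      decide +revert
    have v1 := eq_of_mem_four (x := w + w₁) (y := w) (by rw [← u1, hg', two_add_add])
      (add_left_cancel (u3.symm.trans (hg' _))) (fun c => by simpa [h.ww, a] using congrArg φ c)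
      h.w0 (by simpa using h₁.w0)
    have v2 := eq_of_mem_four (u5 u2) ((two_add_add _ _).symm.trans (u5 u4))
      (fun c => by simpa [h.ww, b] using LinearMap.congr_fun c w) h.φ0 (by simpa using h₁.φ0)
    rw [add_right_comm, two_add_self, zero_add, add_comm] at v1 v2
    have := h'.ww
    rcases v1 with rfl | rfl | rfl <;> rcases v2 with rfl | rfl | rfl <;>
      first | exact .inl (h'.eq hρ h) | exact .inr (.inl (h'.eq hρ h₁)) |
        exact .inr (.inr (h'.eq hρ h₂)) | simp [h.ww, h₁.ww, a, b] at this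
  obtain ⟨i, hi, e1, e2⟩ := h.conj_eq hρ hg
  rcases h.three hρ hF hf f1 e hi e1 with rfl | rfl | rfl
  · have c : Commute g t := mul_inv_eq_iff_eq_mul.1 (e2.trans (mul_one t))
    have k : ∀ {u w φ}, Tv ρ u w φ → Commute g u → Commute s u := fun {u w φ} hu cu => by
      obtain ⟨u1, u2⟩ := (mul_inv_eq_iff_eq_mul.2 cu.eq ▸ hu.conj g).uniq hu
      rw [hg', add_eq_left] at u1
      have u3 := LinearMap.congr_fun u2 (ρ g w₁')
      have u4 := congrArg φ' u1
      have u5 := congrArg φ₁' u1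
      rw [LinearMap.comp_apply, rep_apply_apply, inv_mul_cancel, map_one, End.one_apply, hg'] at u3
      simp only [map_add, map_smul, h'.ww, h₁'.ww, a', b', smul_eq_mul, mul_zero, mul_one, zero_add,
        add_zero, map_zero] at u4 u5
      exact h'.commute hρ hu (by simpa [u4] using u5) (by simpa [h₁'.ww, a'] using u3)
    obtain ⟨w₁, φ₁, h₁⟩ := h.mul hF hf e
    exact .inr ⟨k h c, by
      simpa using (k h c).inv_right.mul_right (k h₁ (c.mul_right (h.central hρ hF hf e hg))), c⟩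
  · exact .inl (key _ hf f1 e e2)
  · have := key _ hi (by simpa using f1) e1 e2
    rw [inv_inv] at this
    tauto

end Tv

variable (ρ) in
/-- The fixed space of a subgroup. -/
def fixS (A : Subgroup G) : Submodule (ZMod 2) V := ⨅ a ∈ A, LinearMap.ker (ρ a - 1)

theorem mem_fixS {A : Subgroup G} {v : V} : v ∈ fixS ρ A ↔ ∀ a ∈ A, ρ a v = v := by
  simp [fixS, sub_eq_zero]

theorem eq_one_of_fixS [Finite G] {B : Subgroup G} (hB : IsPGroup 2 B) {r : G}
    (hr : Odd (orderOf r)) (hc : ∀ b ∈ B, Commute b r) (h : ∀ v ∈ fixS ρ B, ρ r v = v) :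
    ρ r = 1 := by
  let e : End (ZMod 2) V := ∑ i ∈ Finset.range (orderOf r), ρ r ^ i
  have h1 : e * (ρ r - 1) = 0 := by
    rw [geom_sum_mul, ← map_pow, pow_orderOf_eq_one, map_one, sub_self]
  by_contra hn
  obtain ⟨v, v1, v2, v3⟩ := exists_fixed_mod ρ hB (N := LinearMap.ker e) (M := ⊥)
    (fun b hb v hv => by
      rw [LinearMap.mem_ker, ← End.mul_apply, ← (Commute.sum_right _ _ _ fun i _ =>
        ((hc b hb).map ρ).pow_right i).eq, End.mul_apply, LinearMap.mem_ker.1 hv, map_zero])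
    (by simp +contextual) fun hle => hn (LinearMap.ext fun v =>
      sub_eq_zero.1 (hle (LinearMap.congr_fun h1 v)))
  have v4 := h v (mem_fixS.2 fun b hb => sub_eq_zero.1 (v3 b hb))
  have v5 : ∀ i, (ρ r ^ i) v = v := fun i => by
    rw [← map_pow]; exact pow_mem (show r ∈ vecStab ρ v from v4) i
  obtain ⟨m, hm⟩ := hr
  rw [LinearMap.mem_ker, LinearMap.sum_apply] at v1
  simp only [v5, Finset.sum_const, Finset.card_range, hm, succ_nsmul, mul_comm 2, mul_smul,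
    two_smul, two_add_self, smul_zero, zero_add] at v1
  exact v2 v1

theorem card_le_two_mul [Finite G] {A B : Subgroup G} (x : G) (h : ∀ a ∈ A, a ∈ B ∨ x * a ∈ B) :
    Nat.card A ≤ 2 * Nat.card B := by
  classical
  rw [two_mul, ← Nat.card_sum]
  refine Nat.card_le_card_of_injective (fun a => if ha : a.1 ∈ B then .inl ⟨a, ha⟩ else
    .inr ⟨x * a, (h a a.2).resolve_left ha⟩) fun a b e => ?_
  dsimp only at e
  split_ifs at e <;> simp_all

variable (ρ) in
/-- Offenders. -/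
def Off (A : Subgroup G) : Prop := Nat.card V ≤ Nat.card A * Nat.card (fixS ρ A)

variable [Finite V]

theorem Off.of_le {A B : Subgroup G} (h : Off ρ A) (hB : B ≤ A) (hc : Nat.card A ≤ 2 * Nat.card B)
    {v : V} (h1 : v ∈ fixS ρ B) (h2 : v ∉ fixS ρ A) : Off ρ B := by
  have h3 : (fixS ρ A).toAddSubgroup < (fixS ρ B).toAddSubgroup :=
    lt_of_le_of_ne (fun v hv => mem_fixS.2 fun b hb => mem_fixS.1 hv b (hB hb)) fun e =>
      h2 (e.ge h1)
  obtain ⟨c, hc'⟩ := AddSubgroup.card_dvd_of_le h3.le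
  have h4 : 2 ≤ c := by
    by_contra h4
    obtain rfl | rfl : c = 0 ∨ c = 1 := by omega
    · exact Nat.card_pos.ne' hc'
    · exact h3.ne (AddSubgroup.eq_of_le_of_card_ge h3.le (by simpa using hc'.le))
  change Nat.card (fixS ρ B) = Nat.card (fixS ρ A) * c at hc'
  unfold Off at *
  rw [hc']
  nlinarith [Nat.mul_le_mul hc (le_refl (Nat.card (fixS ρ A))), Nat.mul_le_mul (le_refl
    (Nat.card B * Nat.card (fixS ρ A))) h4]

theorem exists_tv {t : G} (h0 : ρ t ≠ 1) (h : Nat.card V ≤ 2 * Nat.card (LinearMap.ker (ρ t - 1))) :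
    ∃ w φ, Tv ρ t w φ := by
  have h1 : finrank (ZMod 2) (LinearMap.range (ρ t - 1)) ≤ 1 := by
    have := LinearMap.finrank_range_add_finrank_ker (ρ t - 1)
    rw [Module.natCard_eq_pow_finrank (K := ZMod 2) (V := V),
      Module.natCard_eq_pow_finrank (K := ZMod 2) (V := LinearMap.ker _), Nat.card_zmod, ← pow_succ', Nat.pow_le_pow_iff_right one_lt_two] at h
    omega
  obtain ⟨w, hw⟩ := finrank_le_one_iff.1 h1
  have hw0 : (w : V) ≠ 0 := fun e => h0 (LinearMap.ext fun v => by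
    obtain ⟨c, hc⟩ := hw ⟨_, v, rfl⟩
    simpa [e, sub_eq_zero] using (congrArg Subtype.val hc).symm)
  obtain ⟨ψ, hψ⟩ := Module.Projective.exists_dual_eq_one (ZMod 2) hw0
  have h2 : ∀ v, ρ t v = v + (ψ ∘ₗ (ρ t - 1)) v • (w : V) := fun v => by
    obtain ⟨c, hc⟩ := hw ⟨_, v, rfl⟩
    have := congrArg Subtype.val hc
    rw [LinearMap.comp_apply, ← sub_eq_iff_eq_add']
    dsimp only at this
    rw [← this, Submodule.coe_smul, map_smul, hψ, smul_eq_mul, mul_one]
    exact this.symm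
  exact ⟨w, _, h2, hw0, fun e => h0 (LinearMap.ext fun v => by simpa [e] using h2 v)⟩

variable (hρ : Function.Injective ρ) [Finite G] {F : Subgroup G} [hn : F.Normal]
  (hF : Odd (Nat.card F)) (hC : centralizer (F : Set G) ≤ F)
include hρ hF hC

theorem Off.exists_tv (A : Subgroup G) : IsPGroup 2 A → IsMulCommutative A → Off ρ A → A ≠ ⊥ →
    ∃ t ∈ A, ∃ w φ, Tv ρ t w φ := by
  refine subgroup_strong_induction (P := fun A => IsPGroup 2 A → IsMulCommutative A → Off ρ A →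
    A ≠ ⊥ → ∃ t ∈ A, ∃ w φ, Tv ρ t w φ) (fun A ih hA hc hO h0 => ?_) A
  have hcop := (coprime_card_of_isPGroup hA hF.coprime_two_right).symm
  obtain ⟨B, hB, ⟨x, hx, e⟩, r, hr, hr'⟩ : ∃ B ≤ A, (∃ a ∈ A, B ⊔ zpowers a = A) ∧
      ∃ r ∈ F ⊓ centralizer (B : Set G), r ∉ centralizer (A : Set G) := by
    by_contra h
    push Not at h
    exact h0 (eq_bot_iff.2 ((le_inf le_rfl ((le_centralizer_iff.1 (le_of_forall_cocyclic hc
      le_normalizer_of_normal hcop h)).trans hC)).trans (disjoint_of_coprime_natCard hcop).le_bot))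
  have hxB : ∀ b ∈ B, Commute b x := fun b hb => setLike_mul_comm (hB hb) hx
  have hrB : ∀ b ∈ B, Commute b r := hr.2
  have hN : ¬ fixS ρ B ≤ fixS ρ A := fun h => hr' (by
    have h1 : ∀ v ∈ fixS ρ B, ρ r⁻¹ v ∈ fixS ρ B := fun v hv => mem_fixS.2 fun b hb => by
      rw [rep_apply_apply, (hrB b hb).inv_right.eq, ← rep_apply_apply, mem_fixS.1 hv b hb]
    have h2 := eq_one_of_fixS (ρ := ρ) (hA.to_le hB) (r := x * r * x⁻¹ * r⁻¹)
      (odd_orderOf hF (mul_mem (hn.conj_mem r hr.1 x) (inv_mem hr.1))) (fun b hb =>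
        (((hxB b hb).mul_right (hrB b hb)).mul_right (hxB b hb).inv_right).mul_right
          (hrB b hb).inv_right) fun v hv => by
        rw [← rep_apply_apply, ← rep_apply_apply, mem_fixS.1 (h (h1 v hv)) _ (inv_mem hx),
          ← rep_apply_apply, rep_apply_apply ρ r, mul_inv_cancel, map_one, End.one_apply,
          mem_fixS.1 (h hv) x hx]
    rw [← e, ← zpowers_le, le_centralizer_iff]
    refine sup_le (le_centralizer_iff.1 (zpowers_le.2 hr.2)) (zpowers_le.2 ?_)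
    rw [← zpowers_le, le_centralizer_iff, zpowers_le, mem_centralizer_iff]
    rintro _ ⟨n, rfl⟩
    exact ((commutatorElement_eq_one_iff_commute.1 (hρ (h2.trans (map_one ρ).symm))).zpow_left n).eq)
  obtain ⟨v, v1, v2, v3⟩ := exists_fixed_mod ρ (hA.to_le (zpowers_le.2 hx)) (N := fixS ρ B)
    (M := fixS ρ A) (fun y hy v hv => mem_fixS.2 fun b hb => by
      rw [rep_apply_apply, setLike_mul_comm (hB hb) (zpowers_le.2 hx hy), ← rep_apply_apply,
        mem_fixS.1 hv b hb]) (fun y hy v hv => by rwa [mem_fixS.1 hv y (zpowers_le.2 hx hy)]) hN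
  have hle : B ⊔ zpowers (x ^ 2) ≤ A := sup_le hB (zpowers_le.2 (pow_mem hx 2))
  have v4 : v ∈ fixS ρ (B ⊔ zpowers (x ^ 2)) := mem_fixS.2 (show _ ≤ vecStab ρ v from
    sup_le (mem_fixS.1 v1) (zpowers_le.2 (show _ = _ by
      have := mem_fixS.1 (v3 x (mem_zpowers x)) x hx
      rw [map_sub, sub_eq_iff_eq_add, sub_add_eq_add_sub, two_add_self, zero_sub,
        neg_eq_iff_add_eq_zero.2 (two_add_self v)] at this
      rw [pow_two, ← rep_apply_apply, this])))
  have hcard : Nat.card A ≤ 2 * Nat.card (B ⊔ zpowers (x ^ 2) : Subgroup G) := by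
    refine card_le_two_mul x fun a ha => ?_
    obtain ⟨b, hb, _, ⟨n, rfl⟩, rfl⟩ := (mem_sup_iff_of_le_normalizer' ((zpowers_le.2
      (mem_centralizer_iff.2 hxB)).trans (centralizer_le_normalizer _))).1
        (sup_comm B _ ▸ e.ge ha)
    have h := fun m : ℤ => mul_mem (mem_sup_left hb)
      (mem_sup_right (zpow_mem (mem_zpowers (x ^ 2)) m) : _ ∈ B ⊔ _)
    obtain ⟨m, rfl | rfl⟩ := Int.even_or_odd' n
    · exact .inl (by simpa [zpow_mul] using h m)
    · refine .inr ?_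
      convert h (m + 1) using 1
      rw [← mul_assoc, ← (hxB b hb).eq, ← zpow_natCast, ← zpow_mul]
      group
  have hO' := hO.of_le hle hcard v4 v2
  by_cases h : B ⊔ zpowers (x ^ 2) = ⊥
  · rw [h, card_bot] at hcard
    rw [sup_eq_bot_iff] at h
    rw [h.1, bot_sup_eq] at e
    refine ⟨x, hx, H6.exists_tv (fun c => h0 ?_) (hO.trans (Nat.mul_le_mul hcard
      (Nat.card_mono (Set.toFinite _) fun v hv => sub_eq_zero.2 (mem_fixS.1 hv x hx))))⟩
    rw [← e, hρ (c.trans (map_one ρ).symm), zpowers_one_eq_bot]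
  · obtain ⟨t, ht, h⟩ := ih _ (lt_of_le_of_ne hle fun e => v2 (e ▸ v4)) (hA.to_le hle)
      ⟨⟨fun a b => Subtype.ext (setLike_mul_comm (hle a.2) (hle b.2))⟩⟩ hO' h
    exact ⟨t, hle ht, h⟩

/-- Offenders are generated by transvections. -/
theorem Off.le_closure (A : Subgroup G) : IsPGroup 2 A → IsMulCommutative A → Off ρ A →
    A ≤ closure {t | t ∈ A ∧ ∃ w φ, Tv ρ t w φ} := by
  refine subgroup_strong_induction (P := fun A => IsPGroup 2 A → IsMulCommutative A → Off ρ A →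
    A ≤ closure {t | t ∈ A ∧ ∃ w φ, Tv ρ t w φ}) (fun A ih hA hc hO => ?_) A
  by_cases h0 : A = ⊥
  · exact h0.le.trans bot_le
  obtain ⟨t, ht, w, φ, h⟩ := hO.exists_tv hρ hF hC A hA hc h0
  obtain ⟨f, hf, f1, e⟩ := h.exists_inv hρ hF hC
  obtain ⟨w₁, φ₁, h₁, -, a, -⟩ := h.tri hρ hF hf f1 e
  have h1 : ∀ a ∈ A, a ∈ A ⊓ centralizer {f} ∨ t * a ∈ A ⊓ centralizer {f} := fun a ha => by
    rcases h.three hρ hF hf f1 e (hn.conj_mem f hf a) (by
      rw [show t * (a * f * a⁻¹) * t⁻¹ = t * a * f * (t * a)⁻¹ by group, setLike_mul_comm ht ha,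
        conj_inv, ← e]; group) with c | c | c
    · exact (f1 (by simpa using c)).elim
    · exact .inl ⟨ha, mem_centralizer_singleton_iff.2 (mul_inv_eq_iff_eq_mul.1 c)⟩
    · refine .inr ⟨mul_mem ht ha, mem_centralizer_singleton_iff.2 (mul_inv_eq_iff_eq_mul.1 ?_)⟩
      rw [show t * a * f * (t * a)⁻¹ = t * (a * f * a⁻¹) * t⁻¹ by group, c, ← conj_inv, e, inv_inv]
  have h2 : w₁ ∈ fixS ρ (A ⊓ centralizer {f}) := mem_fixS.2 fun a ha =>
    ((show a * (t * f) * a⁻¹ = t * f by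
      rw [← mul_assoc, setLike_mul_comm ha.1 ht, mul_assoc t, mem_centralizer_singleton_iff.1 ha.2]
      group) ▸ h₁.conj a).uniq h₁ |>.1
  have h3 : w₁ ∉ fixS ρ A := fun c => h.w0 (by simpa [h.ap, a] using mem_fixS.1 c t ht)
  have h4 := (ih _ (lt_of_le_of_ne inf_le_left fun e => h3 (e ▸ h2)) (hA.to_le inf_le_left)
    ⟨⟨fun a b => Subtype.ext (setLike_mul_comm a.2.1 b.2.1)⟩⟩
    (hO.of_le inf_le_left (card_le_two_mul t h1) h2 h3)).trans
    (Subgroup.closure_mono (k := {t | t ∈ A ∧ ∃ w φ, Tv ρ t w φ}) fun _ h => ⟨h.1.1, h.2⟩)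
  exact fun a ha => (h1 a ha).elim (@h4 _) fun c =>
    (mul_mem_cancel_left (Subgroup.subset_closure (by exact ⟨ht, w, φ, h⟩))).1 (h4 c)

omit [Finite V] in
/-- A normal subgroup generated by transvections is a product of symmetric groups. -/
theorem nonempty_mulEquiv_pi_perm {Y : Subgroup G} [hY : Y.Normal]
    (h : Y ≤ closure {t | t ∈ Y ∧ ∃ w φ, Tv ρ t w φ}) (h0 : Y ≠ ⊥) :
    ∃ n : ℕ, 1 ≤ n ∧ Nonempty (Y ≃* (Fin n → Equiv.Perm (Fin 3))) := by
  let I := {E : Subgroup G // ∃ t ∈ Y, ∃ w φ, Tv ρ t w φ ∧ ∃ f ∈ F, f ≠ 1 ∧ t * f * t⁻¹ = f⁻¹ ∧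
    E = zpowers t ⊔ zpowers f}
  have := Fintype.ofFinite I
  have h1 : ∀ E : I, ∃ ψ : Equiv.Perm (Fin 3) →* G, Function.Injective ψ ∧ ψ.range = E.1 := by
    rintro ⟨_, t, ht, w, φ, h, f, hf, f1, e, rfl⟩
    have := Fact.mk Nat.prime_three
    have o3 : orderOf f = 3 := orderOf_eq_prime (h.cube hρ hF hf e) f1
    have t1 : t ≠ 1 := fun c => f1 (by
      obtain ⟨n, hn⟩ := exists_sqrt hF hf
      rw [c, one_mul, inv_one, mul_one, eq_inv_iff_mul_eq_one] at e
      rw [← hn, ← (Commute.refl f).mul_pow, e, one_pow])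
    have o2 : orderOf t = 2 := orderOf_eq_prime ((pow_two t).trans (h.sq hρ)) t1
    have hd : zpowers t ⊓ zpowers f = ⊥ := (disjoint_of_coprime_natCard (by
      rw [Nat.card_zpowers, Nat.card_zpowers, o2, o3]; decide)).eq_bot
    obtain ⟨ψ⟩ := H4.nonempty_mulEquiv_perm_three (G := (zpowers t ⊔ zpowers f : Subgroup G))
      (x := ⟨f, mem_sup_right (mem_zpowers f)⟩) (y := ⟨t, mem_sup_left (mem_zpowers t)⟩)
      (by rw [← o3, ← orderOf_coe]) (by
        rw [← o2, ← Nat.card_zpowers, ← relIndex_bot_left, ← hd, inf_relIndex_left,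
          ← relIndex_sup_of_le_normalizer (zpowers_le.2 (mem_normalizer_fintype ?_)), relIndex]
        · congr 1
          rw [← map_subtype_inj, MonoidHom.map_zpowers, map_subgroupOf_eq_of_le le_sup_right]; rfl
        · rintro _ ⟨n, rfl⟩
          exact ⟨-n, by rw [← conj_zpow, e]; simp⟩)
      (fun ⟨n, c⟩ => t1 (hd.le ⟨mem_zpowers t, n, congrArg Subtype.val c⟩))
      (Subtype.ext ((pow_two t).trans (h.sq hρ))) (Subtype.ext e)
    exact ⟨(Subgroup.subtype _).comp ψ.symm.toMonoidHom, Subtype.val_injective.comp ψ.symm.injective,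
      by rw [MonoidHom.range_comp, MonoidHom.range_eq_top.2 ψ.symm.surjective,
        ← MonoidHom.range_eq_map, range_subtype]⟩
  choose ψ h2 h3 using h1
  have h4 : ∀ E E' : I, E ≠ E' → E.1 ≤ centralizer (E'.1 : Set G) := by
    rintro ⟨_, s, hs, w', φ', h', g, hg, g1, e', rfl⟩ ⟨_, t, ht, w, φ, h, f, hf, f1, e, rfl⟩ hne
    rcases h.dichotomy hρ hF hf f1 e h' hg g1 e' with c | ⟨c1, c2, c3⟩
    · refine (hne (Subtype.ext ?_)).elim
      have c' : zpowers g = zpowers f := by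
        rcases h'.three hρ hF hf f1 (by rw [← e]; rcases c with rfl | rfl | rfl <;> group) hg e'
          with c | c | c
        exacts [(g1 c).elim, c ▸ rfl, c ▸ zpowers_inv]
      have k : ∀ {a b c : G}, c ∈ zpowers f → a = b * c → zpowers a ⊔ zpowers f ≤
          zpowers b ⊔ zpowers f := fun hc e => sup_le (zpowers_le.2 (e ▸ mul_mem
            (mem_sup_left (mem_zpowers _)) (mem_sup_right hc))) le_sup_right
      obtain ⟨c, hc, rfl⟩ : ∃ c ∈ zpowers f, s = t * c := by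
        rcases c with rfl | rfl | rfl
        exacts [⟨1, one_mem _, by simp⟩, ⟨f, mem_zpowers f, rfl⟩, ⟨_, inv_mem (mem_zpowers f), rfl⟩]
      change zpowers _ ⊔ zpowers g = zpowers t ⊔ zpowers f
      rw [c']
      exact le_antisymm (k hc rfl) (k (inv_mem hc) (by simp))
    · have k : ∀ {a}, Commute a t → Commute a f → zpowers a ≤
          centralizer ((zpowers t ⊔ zpowers f : Subgroup G) : Set G) := fun h1 h2 =>
        le_centralizer_iff.1 (sup_le (zpowers_le.2 (mem_centralizer_iff.2 (by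
          rintro _ ⟨n, rfl⟩; exact (h1.zpow_left n).eq))) (zpowers_le.2 (mem_centralizer_iff.2 (by
          rintro _ ⟨n, rfl⟩; exact (h2.zpow_left n).eq))))
      exact sup_le (k c1 c2) (k c3 (h.central hρ hF hf e hg))
  have h5 : Pairwise fun E E' : I => ∀ x y, Commute (ψ E x) (ψ E' y) := fun E E' hne x y =>
    (mem_centralizer_iff.1 (h4 E E' hne (h3 E ▸ ⟨x, rfl⟩)) _ (h3 E' ▸ ⟨y, rfl⟩)).symm
  have h6 := MonoidHom.injective_noncommPiCoprod_of_iSupIndep ψ (hcomm := h5) (fun E => by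
    rw [disjoint_iff, eq_bot_iff]
    rintro _ ⟨⟨x, rfl⟩, hx⟩
    have := (iSup₂_le fun E' hne => (h3 E').le.trans (h4 E' E hne) : _ ≤ centralizer (E.1 : Set G)) hx
    have c : ∀ y, y * x = x * y := fun y => h2 E (by
      rw [map_mul, map_mul, mem_centralizer_iff.1 this _ (h3 E ▸ ⟨y, rfl⟩)])
    rw [mem_bot, (by decide : ∀ x : Equiv.Perm (Fin 3), (∀ y, y * x = x * y) → x = 1) x c, map_one]) h2
  have h7 : (MonoidHom.noncommPiCoprod ψ h5).range = Y := by
    rw [MonoidHom.noncommPiCoprod_range]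
    refine le_antisymm (iSup_le fun E => (h3 E).le.trans ?_) (h.trans ((closure_le _).2 ?_))
    · obtain ⟨_, t, ht, w, φ, h, f, hf, f1, e, rfl⟩ := E
      refine sup_le (zpowers_le.2 ht) (zpowers_le.2 ?_)
      have := pow_mem (mul_mem (hY.conj_mem t ht f) (inv_mem ht)) 2
      rwa [show f * t * f⁻¹ * t⁻¹ = f * (t * f * t⁻¹)⁻¹ by group, e, inv_inv, ← pow_two, ← pow_mul,
        pow_succ', h.cube hρ hF hf e, mul_one] at this
    · rintro t ⟨ht, w, φ, h⟩
      obtain ⟨f, hf, f1, e⟩ := h.exists_inv hρ hF hC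
      exact mem_iSup_of_mem ⟨_, t, ht, w, φ, h, f, hf, f1, e, rfl⟩
        ((h3 _).ge (mem_sup_left (mem_zpowers t)))
  refine ⟨Fintype.card I, Fintype.card_pos_iff.2 ?_, ⟨((MulEquiv.subgroupCongr h7).symm.trans
    (MonoidHom.ofInjective h6).symm).trans (MulEquiv.arrowCongr (Fintype.equivFin I) (.refl _))⟩⟩
  by_contra hI
  rw [not_nonempty_iff] at hI
  exact h0 (by rw [← h7, MonoidHom.noncommPiCoprod_range, iSup_of_empty])

end Cfsg.Agent.H6
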