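import Mathlib

/-! `-1` is a sum of two squares in a field that contains `√5` and a root of unity of odd prime
order. -/

set_option autoImplicit false

namespace Cfsg.Agent.H6

open Finset

/-- Gauss: `(1 - x^l)/(1 - x)` is of the form `A² + l B²` for a prime `l ≡ 3 (mod 4)`. -/
theorem exists_gauss_form {K : Type*} [Field K] [CharZero K] {l : ℕ} (hl : l.Prime)
    (h4 : l % 4 = 3) (x : K) : ∃ A B : K, (1 - x) * (A ^ 2 + l * B ^ 2) = 1 - x ^ l := by
  classical
  haveI := Fact.mk hl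
  haveI : NeZero l := ⟨hl.ne_zero⟩
  let L := CyclotomicField l K
  haveI : IsGalois K L := IsCyclotomicExtension.isGalois {l} K L
  haveI : FiniteDimensional K L := IsCyclotomicExtension.finiteDimensional {l} K L
  haveI : CharZero L := charZero_of_injective_algebraMap (algebraMap K L).injective
  have hε := IsCyclotomicExtension.zeta_spec l K L
  set ε := IsCyclotomicExtension.zeta l K L
  set ψ : AddChar (ZMod l) L := AddChar.zmodChar l ((IsPrimitiveRoot.iff_def ε l).mp hε).left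
    with hψ
  have hl2 : ringChar (ZMod l) ≠ 2 := by rw [ZMod.ringChar_zmod_n]; omega
  set χ₀ := quadraticChar (ZMod l) with hχ₀
  set χ : MulChar (ZMod l) L := χ₀.ringHomComp (Int.castRingHom L) with hχ
  have hγ : gaussSum χ ψ ^ 2 = -l := by
    rw [gaussSum_sq ((MulChar.ringHomComp_ne_one_iff (RingHom.injective_int _)).2
      (quadraticChar_ne_one hl2)) ((quadraticChar_isQuadratic _).comp _)
      (AddChar.zmodChar_primitive_of_primitive_root l hε), MulChar.ringHomComp_apply,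
      quadraticChar_neg_one hl2, ZMod.card, ZMod.χ₄_nat_three_mod_four h4]
    simp only [eq_intCast, Int.cast_neg, Int.cast_one]
    exact neg_one_mul _
  set γ := gaussSum χ ψ with hγd
  have hγ0 : γ ≠ 0 := fun e => by
    rw [e, zero_pow two_ne_zero, eq_comm, neg_eq_zero, Nat.cast_eq_zero] at hγ
    exact hl.ne_zero hγ
  set y := algebraMap K L x with hy
  let F : ℤ → L := fun e => ∏ a : ZMod l with χ₀ a = e, (1 - ψ a * y)
  have key : ∀ σ : L ≃ₐ[K] L, ∃ c : ℤ, (c = 1 ∨ c = -1) ∧ σ γ = c * γ ∧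
      ∀ e, σ (F e) = F (c * e) := by
    intro σ
    have h1 := hε.map_of_injective σ.injective
    obtain ⟨i, -, hi⟩ := hε.eq_pow_of_pow_eq_one h1.pow_eq_one
    have hi0 : (i : ZMod l) ≠ 0 := fun e => by
      obtain ⟨k, rfl⟩ := (ZMod.natCast_eq_zero_iff _ _).1 e
      rw [pow_mul, hε.pow_eq_one, one_pow] at hi
      exact h1.ne_one hl.one_lt hi.symm
    have h2 : ∀ a, σ (ψ a) = ψ (i * a) := fun a => by
      conv_rhs => rw [← ZMod.natCast_zmod_val a, ← Nat.cast_mul]
      rw [hψ, AddChar.zmodChar_apply, AddChar.zmodChar_apply', map_pow, ← hi, pow_mul]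
    have hc := quadraticChar_dichotomy hi0
    have hcc : χ₀ i * χ₀ i = 1 := by rcases hc with e | e <;> rw [hχ₀, e] <;> norm_num
    refine ⟨χ₀ i, hc, ?_, fun e => ?_⟩
    · have h3 := gaussSum_mulShift χ ψ (Units.mk0 _ hi0)
      have h5 : σ γ = gaussSum χ (ψ.mulShift (i : ZMod l)) := by
        rw [hγd, gaussSum, gaussSum, map_sum]
        refine sum_congr rfl fun a _ => ?_
        rw [map_mul, h2, AddChar.mulShift_apply, hχ, MulChar.ringHomComp_apply]
        simp
      rw [h5, hγd, ← h3, ← mul_assoc, hχ, MulChar.ringHomComp_apply, Units.val_mk0]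
      simp only [eq_intCast]
      rw [← Int.cast_mul, hcc]
      simp
    · simp only [F, map_prod, map_sub, map_one, map_mul, h2, hy, AlgEquiv.commutes]
      refine prod_bij (fun a _ => (i : ZMod l) * a) (fun a ha => ?_) (fun a _ b _ h => ?_)
        (fun b hb => ⟨(i : ZMod l)⁻¹ * b, ?_, ?_⟩) fun _ _ => rfl
      · rw [mem_filter] at ha ⊢
        exact ⟨mem_univ _, by rw [map_mul, ha.2]⟩
      · exact mul_left_cancel₀ hi0 h
      · rw [mem_filter] at hb ⊢
        refine ⟨mem_univ _, ?_⟩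
        have h6 : χ₀ i * χ₀ ((i : ZMod l)⁻¹ * b) = χ₀ i * e := by
          rw [← map_mul, mul_inv_cancel_left₀ hi0, hb.2]
        linear_combination (χ₀ i) * h6 - (χ₀ ((i : ZMod l)⁻¹ * b) - e) * hcc
      · exact mul_inv_cancel_left₀ hi0 b
  obtain ⟨A, hA⟩ := (IsGalois.mem_range_algebraMap_iff_fixed (F := K) ((F 1 + F (-1)) / 2)).2
    fun σ => by
      obtain ⟨c, hc, -, h⟩ := key σ
      rw [map_div₀, map_add, h, h, map_ofNat]
      rcases hc with rfl | rfl <;> simp [add_comm]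
  obtain ⟨B, hB⟩ := (IsGalois.mem_range_algebraMap_iff_fixed (F := K)
    ((F 1 - F (-1)) / (2 * γ))).2 fun σ => by
      obtain ⟨c, hc, h', h⟩ := key σ
      rw [map_div₀, map_sub, map_mul, h, h, h', map_ofNat]
      rcases hc with rfl | rfl
      · simp
      · simp only [mul_one, mul_neg, neg_neg, Int.cast_neg, Int.cast_one, neg_one_mul]
        rw [div_neg, ← neg_div, neg_sub]
  have hprod : (1 - y) * (F 1 * F (-1)) = 1 - y ^ l := by
    have h1 : ∏ a : ZMod l, (1 - ψ a * y) = 1 - y ^ l := by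
      have h2 := congrArg (Polynomial.eval 1) (X_pow_sub_C_eq_prod hε hl.pos (rfl : y ^ l = _))
      simp only [Polynomial.eval_sub, Polynomial.eval_pow, Polynomial.eval_X, Polynomial.eval_C,
        one_pow, Polynomial.eval_prod] at h2
      rw [h2]
      refine prod_bij' (fun a _ => a.val) (fun i _ => (i : ZMod l)) (fun a _ => ?_)
        (fun _ _ => mem_univ _) (fun a _ => ZMod.natCast_zmod_val a) (fun i hi => ?_) fun a _ => ?_
      · exact mem_range.2 (ZMod.val_lt a)
      · exact ZMod.val_cast_of_lt (mem_range.1 hi)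
      · rw [hψ, AddChar.zmodChar_apply]
    rw [← h1, ← prod_filter_mul_prod_filter_not univ (fun a => χ₀ a = 1),
      ← prod_filter_mul_prod_filter_not (univ.filter fun a => ¬ χ₀ a = 1) (fun a => χ₀ a = -1),
      filter_filter, filter_filter]
    have e1 : (univ.filter fun a : ZMod l => ¬ χ₀ a = 1 ∧ χ₀ a = -1) =
        univ.filter fun a => χ₀ a = -1 := filter_congr fun a _ =>
      ⟨fun h => h.2, fun h => ⟨by rw [h]; norm_num, h⟩⟩
    have e2 : (univ.filter fun a : ZMod l => ¬ χ₀ a = 1 ∧ ¬ χ₀ a = -1) = {0} := by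
      ext a
      rw [mem_filter, mem_singleton]
      refine ⟨fun h => by_contra fun h0 => ?_, fun h => ?_⟩
      · exact (quadraticChar_dichotomy h0).elim h.2.1 h.2.2
      · rw [h, MulChar.map_zero]
        exact ⟨mem_univ _, by norm_num, by norm_num⟩
    rw [e1, e2, prod_singleton, AddChar.map_zero_eq_one, one_mul]
    simp only [F]
    ring
  refine ⟨A, B, (algebraMap K L).injective ?_⟩
  simp only [map_mul, map_sub, map_add, map_pow, map_one, map_natCast, hA, hB, ← hy]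
  rw [← hprod]
  congr 1
  have h7 : (l : L) = -γ ^ 2 := by rw [hγ, neg_neg]
  have h8 : (F 1 - F (-1)) / (2 * γ) * γ = (F 1 - F (-1)) / 2 := by
    rw [div_mul_eq_mul_div, mul_div_mul_right _ _ hγ0]
  rw [h7, neg_mul, ← mul_pow, mul_comm γ, h8]
  ring

theorem not_isSquare_three : ¬ IsSquare (3 : ZMod 5) := by decide

/-- Thue's lemma for the form `x² + 5 y²`. -/
theorem exists_sq_add_five_sq {l : ℕ} (hl : l.Prime) (h20 : l % 20 = 3) :
    ∃ r t : ℤ, 18 * (l : ℤ) = r ^ 2 + 5 * t ^ 2 := by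
  haveI := Fact.mk hl
  haveI : Fact (Nat.Prime 5) := ⟨Nat.prime_five⟩
  have hl2 : l ≠ 2 := by omega
  have h5 : (5 : ZMod l) ≠ 0 := fun e => by
    have := (ZMod.natCast_eq_zero_iff 5 l).1 (by exact_mod_cast e)
    have := Nat.le_of_dvd (by norm_num) this
    interval_cases l <;> simp_all
  obtain ⟨c, hc⟩ : IsSquare (-5 : ZMod l) := by
    classical
    have h1 : ¬ IsSquare (-1 : ZMod l) := by
      rw [ZMod.exists_sq_eq_neg_one_iff]; omega
    have h2 : ¬ IsSquare (5 : ZMod l) := by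
      have := ZMod.exists_sq_eq_prime_iff_of_mod_four_eq_one (p := 5) (q := l) rfl hl2
      rw [show (5 : ZMod l) = ((5 : ℕ) : ZMod l) by simp, ← this,
        show ((l : ℕ) : ZMod 5) = 3 by
          rw [← ZMod.natCast_mod l 5, show l % 5 = 3 by omega]; rfl]
      exact not_isSquare_three
    rw [← quadraticChar_one_iff_isSquare (neg_ne_zero.2 h5), ← neg_one_mul, map_mul,
      quadraticChar_neg_one_iff_not_isSquare.2 h1, quadraticChar_neg_one_iff_not_isSquare.2 h2]
    norm_num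
  set m := l.sqrt with hm
  have hm1 : m * m < l := lt_of_le_of_ne (Nat.sqrt_le l) fun e =>
    Nat.not_prime_mul (by rintro e'; rw [e'] at e; omega) (by rintro e'; rw [e'] at e; omega)
      (e ▸ hl)
  obtain ⟨⟨u, v⟩, h1, ⟨u', v'⟩, h2, hne, he⟩ := exists_ne_map_eq_of_card_lt_of_maps_to
    (s := range (m + 1) ×ˢ range (m + 1)) (t := (univ : Finset (ZMod l)))
    (by rw [card_product, card_range, card_univ, ZMod.card]; exact Nat.lt_succ_sqrt l)
    (f := fun z => (z.1 : ZMod l) - c * z.2) fun _ _ => mem_univ _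
  simp only [mem_product, mem_range] at h1 h2
  obtain ⟨r, hr⟩ : ∃ r : ℤ, r = u - u' := ⟨_, rfl⟩
  obtain ⟨t, ht⟩ : ∃ t : ℤ, t = v - v' := ⟨_, rfl⟩
  obtain ⟨k, hk⟩ : (l : ℤ) ∣ r ^ 2 + 5 * t ^ 2 := by
    rw [← ZMod.intCast_zmod_eq_zero_iff_dvd, hr, ht]
    push_cast
    simp only at he
    have : (u : ZMod l) - u' = c * (v - v') := by linear_combination he
    rw [this]
    linear_combination -(v - v' : ZMod l) ^ 2 * hc
  have hr2 : r ^ 2 ≤ m * m := by
    rw [← sq, sq_le_sq, abs_le, Nat.abs_cast]; omega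
  have ht2 : t ^ 2 ≤ m * m := by
    rw [← sq, sq_le_sq, abs_le, Nat.abs_cast]; omega
  have hpos : 0 < r ^ 2 + 5 * t ^ 2 := by
    rcases eq_or_ne r 0 with e | e
    · have : t ≠ 0 := fun e' => hne (Prod.ext (by simp only; omega) (by simp only; omega))
      positivity
    · positivity
  have hl0 : (0 : ℤ) < l := by exact_mod_cast hl.pos
  have hm2 : (m : ℤ) * m < l := by exact_mod_cast hm1
  have k1 : 0 < k := by nlinarith
  have k2 : k < 6 := by nlinarith
  have sq5 : ∀ z : ℤ, z ^ 2 % 5 = 0 ∧ z % 5 = 0 ∨ z ^ 2 % 5 = 1 ∨ z ^ 2 % 5 = 4 := fun z => by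
    have : z % 5 = 0 ∨ z % 5 = 1 ∨ z % 5 = 2 ∨ z % 5 = 3 ∨ z % 5 = 4 := by omega
    rcases this with e | e | e | e | e <;> simp [pow_two, Int.mul_emod, e]
  have s1 := sq5 r
  have s2 := sq5 t
  interval_cases k
  · omega
  · exact ⟨3 * r, 3 * t, by linear_combination -9 * hk⟩
  · exact ⟨r - 5 * t, r + t, by linear_combination -6 * hk⟩
  · omega
  · obtain ⟨r', rfl⟩ : (5 : ℤ) ∣ r := by omega
    have : 5 * r' ^ 2 + t ^ 2 = l := by linarith
    omega

/-- In a field of characteristic zero with `√5` and a root of unity of odd prime order, `-1` is a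
sum of two squares. -/
theorem exists_sq_add_sq_eq_neg_one {K : Type*} [Field K] [CharZero K] {p : ℕ} (hp : p.Prime)
    (hp2 : p ≠ 2) {ζ s : K} (h1 : ζ ≠ 1) (hζ : ζ ^ p = 1) (hs : s ^ 2 = 5) :
    ∃ a b : K, a ^ 2 + b ^ 2 = -1 := by
  have h0 : 1 - ζ ≠ 0 := sub_ne_zero.2 h1.symm
  rcases eq_or_ne p 5 with rfl | hp5
  · refine ⟨ζ - ζ ^ 4, ζ ^ 2 + ζ ^ 3, mul_left_cancel₀ h0 ?_⟩
    linear_combination (-(1 : K) + ζ + ζ ^ 3 - ζ ^ 4 - ζ ^ 2) * hζ
  have hco : p.Coprime 20 := by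
    rw [show 20 = 2 ^ 2 * 5 from rfl, Nat.coprime_mul_iff_right]
    exact ⟨((Nat.coprime_primes hp Nat.prime_two).2 hp2).pow_right 2,
      (Nat.coprime_primes hp Nat.prime_five).2 hp5⟩
  obtain ⟨k, hk1, hk2⟩ := Nat.chineseRemainder hco (p - 1) 3
  obtain ⟨l, -, hl, hlk⟩ := Nat.forall_exists_prime_gt_and_modEq 0 (q := p * 20) (a := k)
    (mul_ne_zero hp.ne_zero (by norm_num)) (by
      rw [Nat.coprime_mul_iff_right]
      constructor
      · rw [Nat.Coprime, hk1.gcd_eq]
        exact (Nat.coprime_self_sub_left hp.one_le).2 (Nat.coprime_one_left p)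
      · rw [Nat.Coprime, hk2.gcd_eq]
        rfl)
  have e1 : l ≡ p - 1 [MOD p] := (hlk.of_mul_right 20).trans hk1
  have e2 : l % 20 = 3 := (hlk.of_mul_left p).trans hk2
  obtain ⟨A, B, hAB⟩ := exists_gauss_form hl (by omega) ζ
  obtain ⟨r, t, hrt⟩ := exists_sq_add_five_sq hl e2
  obtain ⟨n, rfl⟩ := hp.odd_of_ne_two hp2
  have e3 : ζ ^ l = (ζ ^ n) ^ 2 := by
    rw [pow_eq_pow_mod l hζ, e1, ← pow_eq_pow_mod _ hζ, ← pow_mul]
    congr 1
    omega
  set η := ζ ^ n with hη
  have e4 : η ^ 2 * ζ = 1 := by rw [← hζ, hη]; ring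
  have hη0 : η ≠ 0 := fun e => by simp [e] at e4
  have e5 : A ^ 2 + l * B ^ 2 = -η ^ 2 :=
    mul_left_cancel₀ h0 (by rw [hAB, e3]; linear_combination -e4)
  have e6 : (18 : K) * l = r ^ 2 + 5 * t ^ 2 := by exact_mod_cast congrArg (Int.cast : ℤ → K) hrt
  obtain ⟨u, v, huv⟩ : ∃ u v : K, u ^ 2 + v ^ 2 = l :=
    ⟨(r + t * s) / 6, (r - t * s) / 6, by linear_combination t ^ 2 / 18 * hs - e6 / 18⟩
  have hl0 : (l : K) ≠ 0 := Nat.cast_ne_zero.2 hl.ne_zero
  rcases eq_or_ne B 0 with rfl | hB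
  · exact ⟨A / η, 0, by field_simp; linear_combination e5⟩
  · refine ⟨(A * u - η * v) / (l * B), (A * v + η * u) / (l * B), ?_⟩
    field_simp
    linear_combination (A ^ 2 + η ^ 2) * huv + l * e5

end Cfsg.Agent.H6
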